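import Cfsg.Agent.H902.KgvKey
import Cfsg.Agent.H960.KGV.Core
import Cfsg.Agent.H540.ClassNum

/-!
# Class numbers in the configuration `Core` with `|N : A| = 16`, `p = 3` (for S4968; task 2298)
-/

set_option autoImplicit false
set_option linter.unusedSectionVars false
set_option linter.style.haveILetI false

namespace Cfsg.Agent.H902.Kgv

open Cfsg.Agent.H960.KGV Cfsg.Agent.H540.ClassNum

/-- a group is generated by `k` elements, or they generate at least `2 ^ k` elements -/
theorem exists_gen {M : Type*} [Group M] [Finite M] (k : ℕ) : ∃ s : Fin k → M,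
    Subgroup.closure (Set.range s) = ⊤ ∨ 2 ^ k ≤ Nat.card (Subgroup.closure (Set.range s)) := by
  induction k with
  | zero => exact ⟨Fin.elim0, Or.inr (by rw [pow_zero]; exact Nat.card_pos)⟩
  | succ k ih =>
    obtain ⟨s, hs⟩ := ih
    by_cases ht : Subgroup.closure (Set.range s) = ⊤
    · refine ⟨Fin.cons 1 s, Or.inl (top_le_iff.1 (ht ▸ Subgroup.closure_mono ?_))⟩
      rintro _ ⟨i, rfl⟩
      exact ⟨i.succ, Fin.cons_succ _ _ _⟩
    · obtain ⟨g, hg⟩ : ∃ g : M, g ∉ Subgroup.closure (Set.range s) := by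
        by_contra hcon
        push Not at hcon
        exact ht (eq_top_iff.2 fun x _ => hcon x)
      have h1 : 2 ^ k ≤ Nat.card (Subgroup.closure (Set.range s)) := hs.resolve_left ht
      refine ⟨Fin.cons g s, Or.inr ?_⟩
      have hle : Subgroup.closure (Set.range s) ≤ Subgroup.closure (Set.range (Fin.cons g s : Fin (k + 1) → M)) := by
        refine Subgroup.closure_mono ?_
        rintro _ ⟨i, rfl⟩
        exact ⟨i.succ, Fin.cons_succ _ _ _⟩
      have hmem : g ∈ Subgroup.closure (Set.range (Fin.cons g s : Fin (k + 1) → M)) :=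
        Subgroup.subset_closure ⟨0, Fin.cons_zero _ _⟩
      obtain ⟨c, hc⟩ := Subgroup.card_dvd_of_le hle
      have hc0 : c ≠ 0 := by
        rintro rfl
        exact Nat.card_pos.ne' (hc.trans (mul_zero _))
      have hc1 : c ≠ 1 := by
        rintro rfl
        rw [mul_one] at hc
        have := Subgroup.eq_of_le_of_card_ge hle hc.le
        exact hg (this ▸ hmem)
      rw [hc, pow_succ]
      exact Nat.mul_le_mul h1 (by omega)

/-- fixed points of an element of prime power order normalizing a subgroup -/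
theorem cent_modEq {G : Type*} [Group G] [Finite G] (r : ℕ) [Fact r.Prime] {g : G} {k : ℕ} (hg : g ^ r ^ k = 1)
    (D : Subgroup G) (hD : ∀ d ∈ D, g * d * g⁻¹ ∈ D) :
    Nat.card D ≡ Nat.card (D ⊓ Subgroup.centralizer {g} : Subgroup G) [MOD r] := by
  classical
  haveI := Fintype.ofFinite D
  let f : Function.End D := fun d => ⟨g * d * g⁻¹, hD d d.2⟩
  have hf : ∀ (n : ℕ) (d : D), (((f ^ n) d : D) : G) = g ^ n * d * (g ^ n)⁻¹ := by
    intro n
    induction n with
    | zero =>
      intro d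
      rw [pow_zero, pow_zero, one_mul, inv_one, mul_one]
      rfl
    | succ n ih =>
      intro d
      rw [pow_succ]
      show (((f ^ n) (f d) : D) : G) = _
      rw [ih]
      show g ^ n * (g * d * g⁻¹) * (g ^ n)⁻¹ = _
      rw [pow_succ]
      group
  have h1 : f ^ r ^ k = 1 := by
    funext d
    apply Subtype.ext
    rw [hf, hg, one_mul, inv_one, mul_one]
    rfl
  have h2 := Equiv.Perm.card_fixedPoints_modEq (p := r) (n := k) h1
  rw [← Nat.card_eq_fintype_card, ← Nat.card_eq_fintype_card] at h2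
  have h3 : Nat.card f.fixedPoints = Nat.card (D ⊓ Subgroup.centralizer {g} : Subgroup G) := by
    refine Nat.card_congr
      { toFun := fun d => ⟨d.1.1, Subgroup.mem_inf.2 ⟨d.1.2, Subgroup.mem_centralizer_singleton_iff.2 ?_⟩⟩
        invFun := fun d => ⟨⟨d.1, (Subgroup.mem_inf.1 d.2).1⟩, ?_⟩
        left_inv := fun d => rfl
        right_inv := fun d => rfl }
    · have h4 : g * d.1.1 * g⁻¹ = d.1.1 := congrArg Subtype.val (d.2 : f d.1 = d.1)
      rw [mul_inv_eq_iff_eq_mul] at h4
      exact h4.symm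
    · have h4 := Subgroup.mem_centralizer_singleton_iff.1 (Subgroup.mem_inf.1 d.2).2
      show f _ = _
      apply Subtype.ext
      show g * d.1 * g⁻¹ = d.1
      rw [← h4, mul_inv_cancel_right]
  rwa [h3] at h2

section core

variable {H : Type} [Group H] {A N C : Subgroup H} {a : ℕ} {F : Type} [Field F] {ψ : C →* GL (Fin a) F}

theorem C_eq (h : Core A N C 3 1 a ψ) (g : H) : g ∈ C := by
  have h1 : C = ⊤ := Subgroup.index_eq_one.1 (Nat.dvd_one.1 h.index)
  rw [h1]
  exact Subgroup.mem_top g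

/-- the centralizer of `N` -/
theorem mem_A (h : Core A N C 3 1 a ψ) {g : H} (hg : ∀ n ∈ N, g * n = n * g) : g ∈ A := by
  have h1 := h.abs (ψ ⟨g, C_eq h g⟩ : Matrix (Fin a) (Fin a) F) (by
    intro c hc
    have h2 : (⟨g, C_eq h g⟩ : C) * c = c * ⟨g, C_eq h g⟩ := Subtype.ext (hg c hc)
    have h3 := congrArg (fun x : GL (Fin a) F => (x : Matrix (Fin a) (Fin a) F)) (congrArg ψ h2)
    simpa using h3)
  exact (h.scal ⟨g, C_eq h g⟩).2 h1

/-- `A` is central -/
theorem A_comm (h : Core A N C 3 1 a ψ) {x : H} (hx : x ∈ A) (g : H) : x * g = g * x := by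
  obtain ⟨s, hs⟩ := (h.scal ⟨x, C_eq h x⟩).1 hx
  have h1 : ψ (⟨x, C_eq h x⟩ * ⟨g, C_eq h g⟩) = ψ (⟨g, C_eq h g⟩ * ⟨x, C_eq h x⟩) := by
    apply Units.ext
    rw [map_mul, map_mul, Units.val_mul, Units.val_mul]
    rw [hs, Matrix.smul_mul, Matrix.mul_smul, one_mul, mul_one]
  exact congrArg Subtype.val (h.inj h1)

/-- `|A| ≤ 2` -/
theorem card_A_le (h : Core A N C 3 1 a ψ) : Nat.card A ≤ 2 := by
  classical
  have hF : Nat.card F = 3 := by rw [h.cardF, pow_one]
  haveI : Finite F := Nat.finite_of_card_ne_zero (by rw [hF]; norm_num)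
  haveI : Nonempty (Fin a) := ⟨⟨0, by have := h.two_le; omega⟩⟩
  choose s hs using fun x : A => (h.scal ⟨x, C_eq h x⟩).1 x.2
  have hs0 : ∀ x : A, s x ≠ 0 := by
    intro x h0
    have h1 := hs x
    rw [h0, zero_smul] at h1
    exact (ψ ⟨x, C_eq h x⟩).ne_zero h1
  have hinj : Function.Injective (fun x : A => Units.mk0 (s x) (hs0 x)) := by
    intro x y hxy
    have h1 : s x = s y := by simpa using congrArg Units.val hxy
    have h2 : ψ ⟨x, C_eq h x⟩ = ψ ⟨y, C_eq h y⟩ := by
      apply Units.ext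
      rw [hs x, hs y, h1]
    exact Subtype.ext (congrArg (fun t : C => (t : H)) (h.inj h2))
  have h1 := Nat.card_le_card_of_injective _ hinj
  rwa [Nat.card_units, hF] at h1

variable [Finite H]

/-- the section `N / A` -/
abbrev Ms (A N : Subgroup H) [A.Normal] : Subgroup (H ⧸ A) := N.map (QuotientGroup.mk' A)

theorem card_Ms [A.Normal] (h16 : A.relIndex N = 16) : Nat.card (Ms A N) = 16 := by
  have h1 := Subgroup.relIndex_ker (K := N) (QuotientGroup.mk' A)
  rw [QuotientGroup.ker_mk'] at h1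
  exact h1.symm.trans h16

/-- the action of `H` on `N / A` -/
noncomputable def act (A N : Subgroup H) [A.Normal] [N.Normal] : H →* MulAut (Ms A N) :=
  haveI : (Ms A N).Normal := Subgroup.Normal.map inferInstance _ (QuotientGroup.mk'_surjective A)
  (MulAut.conjNormal).comp (QuotientGroup.mk' A)

theorem act_apply [A.Normal] [N.Normal] (g : H) (m : Ms A N) :
    ((act A N g m : Ms A N) : H ⧸ A) = (g : H ⧸ A) * m * (g : H ⧸ A)⁻¹ := by
  haveI : (Ms A N).Normal := Subgroup.Normal.map inferInstance _ (QuotientGroup.mk'_surjective A)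
  exact MulAut.conjNormal_apply _ _

/-- invariant subgroups -/
theorem inv_sub [A.Normal] [N.Normal] (hAN : A ≤ N) (hmin : ∀ M : Subgroup H, M.Normal → A ≤ M → M ≤ N → M = A ∨ M = N)
    (K : Subgroup (Ms A N)) (hK : ∀ g : H, ∀ m ∈ K, act A N g m ∈ K) : K = ⊥ ∨ K = ⊤ := by
  have hmem : ∀ x : H, x ∈ (K.map (Ms A N).subtype).comap (QuotientGroup.mk' A) ↔
      ∃ m : Ms A N, m ∈ K ∧ (m : H ⧸ A) = (x : H ⧸ A) := by
    intro x
    rw [Subgroup.mem_comap, Subgroup.mem_map]
    rfl
  have hn : ((K.map (Ms A N).subtype).comap (QuotientGroup.mk' A)).Normal := by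
    refine ⟨fun x hx g => ?_⟩
    obtain ⟨m, hm, hm2⟩ := (hmem x).1 hx
    refine (hmem _).2 ⟨act A N g m, hK g m hm, ?_⟩
    rw [act_apply, hm2]
    rfl
  have hA : A ≤ (K.map (Ms A N).subtype).comap (QuotientGroup.mk' A) := by
    intro x hx
    refine (hmem x).2 ⟨1, K.one_mem, ?_⟩
    exact ((QuotientGroup.eq_one_iff x).2 hx).symm
  have hN : (K.map (Ms A N).subtype).comap (QuotientGroup.mk' A) ≤ N := by
    intro x hx
    obtain ⟨m, hm, hm2⟩ := (hmem x).1 hx
    obtain ⟨y, hy, hy2⟩ := Subgroup.mem_map.1 m.2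
    have h1 : (y : H ⧸ A) = (x : H ⧸ A) := hy2.trans hm2
    rw [QuotientGroup.eq] at h1
    have h2 := N.mul_mem hy (hAN h1)
    rwa [mul_inv_cancel_left] at h2
  rcases hmin _ hn hA hN with h | h
  · left
    rw [Subgroup.eq_bot_iff_forall]
    intro m hm
    obtain ⟨x, hx⟩ := QuotientGroup.mk_surjective (m : H ⧸ A)
    have h1 : x ∈ (K.map (Ms A N).subtype).comap (QuotientGroup.mk' A) := (hmem x).2 ⟨m, hm, hx.symm⟩
    rw [h] at h1
    apply Subtype.ext
    rw [← hx]
    exact (QuotientGroup.eq_one_iff x).2 h1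
  · right
    rw [eq_top_iff]
    intro m _
    obtain ⟨y, hy, hy2⟩ := Subgroup.mem_map.1 m.2
    rw [← h] at hy
    obtain ⟨m', hm', hm2⟩ := (hmem y).1 hy
    have h1 : m' = m := Subtype.ext (hm2.trans hy2)
    rwa [← h1]

section main

variable (h : Core A N C 3 1 a ψ) (h16 : A.relIndex N = 16)

include h h16 in
/-- `N / A` is abelian -/
theorem comm_Ms [A.Normal] [N.Normal] (x y : Ms A N) : x * y = y * x := by
  have hc := card_Ms h16
  haveI : Nontrivial (Ms A N) := (Finite.one_lt_card_iff_nontrivial).1 (by rw [hc]; norm_num)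
  haveI : Fact (Nat.Prime 2) := ⟨by norm_num⟩
  have hp : IsPGroup 2 (Ms A N) := IsPGroup.of_card (n := 4) (by rw [hc]; norm_num)
  -- the centre is invariant and non-trivial
  have h1 : Subgroup.center (Ms A N) ≠ ⊥ := by
    have := hp.center_nontrivial
    exact (Subgroup.nontrivial_iff_ne_bot _).1 this
  rcases inv_sub h.AN h.min (Subgroup.center (Ms A N)) (by
    intro g m hm
    rw [Subgroup.mem_center_iff] at hm ⊢
    intro t
    have h2 := hm ((act A N g).symm t)
    have h3 := congrArg (act A N g) h2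
    simpa using h3) with h2 | h2
  · exact absurd h2 h1
  · have h3 : y ∈ Subgroup.center (Ms A N) := h2 ▸ Subgroup.mem_top y
    exact Subgroup.mem_center_iff.1 h3 x

include h h16 in
theorem comm_mem [A.Normal] [N.Normal] {x y : H} (hx : x ∈ N) (hy : y ∈ N) : x * y * x⁻¹ * y⁻¹ ∈ A := by
  have h1 := congrArg Subtype.val (comm_Ms h h16 (⟨(x : H ⧸ A), Subgroup.mem_map.2 ⟨x, hx, rfl⟩⟩ : Ms A N)
    ⟨(y : H ⧸ A), Subgroup.mem_map.2 ⟨y, hy, rfl⟩⟩)
  have h2 : (x : H ⧸ A) * (y : H ⧸ A) = (y : H ⧸ A) * (x : H ⧸ A) := h1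
  rw [← QuotientGroup.eq_one_iff]
  show (x : H ⧸ A) * (y : H ⧸ A) * (x : H ⧸ A)⁻¹ * (y : H ⧸ A)⁻¹ = 1
  rw [h2]
  group

include h h16 in
theorem card_A : Nat.card A = 2 := by
  haveI := h.An
  haveI := h.Nn
  have h1 := card_A_le h
  have h2 : Nat.card A ≠ 1 := by
    intro h0
    have hA : A = ⊥ := Subgroup.card_eq_one.1 h0
    apply h.ne
    refine le_antisymm h.AN fun n hn => mem_A h fun m hm => ?_
    have h3 := comm_mem h h16 hn hm
    rw [hA, Subgroup.mem_bot] at h3
    have h4 : n * m * (m * n)⁻¹ = 1 := by rw [← h3]; group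
    exact mul_inv_eq_one.1 h4
  have h3 : 0 < Nat.card A := Nat.card_pos
  omega

include h h16 in
theorem card_N : Nat.card N = 32 := by
  have h1 := Subgroup.relIndex_mul_relIndex (⊥ : Subgroup H) A N bot_le h.AN
  rw [Subgroup.relIndex_bot_left, Subgroup.relIndex_bot_left, h16, card_A h h16] at h1
  exact h1.symm

theorem act_eq_one_iff [A.Normal] [N.Normal] {g : H} :
    act A N g = 1 ↔ ∀ n ∈ N, g * n * g⁻¹ * n⁻¹ ∈ A := by
  constructor
  · intro hg n hn
    have h1 := congrArg Subtype.val (DFunLike.congr_fun hg (⟨(n : H ⧸ A), Subgroup.mem_map.2 ⟨n, hn, rfl⟩⟩ : Ms A N))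
    rw [act_apply] at h1
    have h2 : (g : H ⧸ A) * (n : H ⧸ A) * (g : H ⧸ A)⁻¹ = (n : H ⧸ A) := h1
    rw [← QuotientGroup.eq_one_iff]
    show (g : H ⧸ A) * (n : H ⧸ A) * (g : H ⧸ A)⁻¹ * (n : H ⧸ A)⁻¹ = 1
    rw [h2, mul_inv_cancel]
  · intro hg
    apply MulEquiv.ext
    intro m
    apply Subtype.ext
    obtain ⟨n, hn, hn2⟩ := Subgroup.mem_map.1 m.2
    rw [act_apply]
    show (g : H ⧸ A) * (m : H ⧸ A) * (g : H ⧸ A)⁻¹ = (m : H ⧸ A)
    rw [← hn2]
    have h1 := (QuotientGroup.eq_one_iff _).2 (hg n hn)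
    have h2 : (g : H ⧸ A) * (n : H ⧸ A) * (g : H ⧸ A)⁻¹ * (n : H ⧸ A)⁻¹ = 1 := h1
    exact mul_inv_eq_one.1 h2

include h h16 in
/-- the kernel of the action is `N` -/
theorem ker_act [A.Normal] [N.Normal] : (act A N).ker = N := by
  have hNK : N ≤ (act A N).ker := fun g hg => by
    rw [MonoidHom.mem_ker, act_eq_one_iff]
    exact fun n hn => comm_mem h h16 hg hn
  -- generators
  obtain ⟨s, hs⟩ := exists_gen (M := Ms A N) 4
  have hs2 : Subgroup.closure (Set.range s) = ⊤ := by
    rcases hs with h1 | h1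
    · exact h1
    · exact Subgroup.eq_top_of_card_eq _ (le_antisymm (Subgroup.card_le_card_group _)
        (by rw [card_Ms h16]; exact h1))
  choose t ht ht2 using fun i => Subgroup.mem_map.1 (s i).2
  -- the map to commutators
  have hc : ∀ (g : (act A N).ker) (i : Fin 4), (g : H) * t i * (g : H)⁻¹ * (t i)⁻¹ ∈ A := fun g i =>
    act_eq_one_iff.1 (MonoidHom.mem_ker.1 g.2) (t i) (ht i)
  -- what commutes with all `t i` is in `A`
  have hcen : ∀ g : H, (∀ i, g * t i = t i * g) → g ∈ A := by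
    intro g hg
    refine mem_A h fun n hn => ?_
    -- the subgroup of `Ms` of elements with a representative commuting with `g`
    have h1 : ∀ m : Ms A N, ∃ y : H, y ∈ N ∧ (y : H ⧸ A) = m ∧ g * y = y * g := by
      intro m
      have hm : m ∈ Subgroup.closure (Set.range s) := hs2 ▸ Subgroup.mem_top m
      induction hm using Subgroup.closure_induction with
      | mem x hx =>
        obtain ⟨i, rfl⟩ := hx
        exact ⟨t i, ht i, ht2 i, hg i⟩
      | one => exact ⟨1, N.one_mem, rfl, by rw [mul_one, one_mul]⟩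
      | mul x y _ _ hx hy =>
        obtain ⟨x', h2, h3, h4⟩ := hx
        obtain ⟨y', h5, h6, h7⟩ := hy
        refine ⟨x' * y', N.mul_mem h2 h5, ?_, ?_⟩
        · rw [QuotientGroup.mk_mul, h3, h6]; rfl
        · rw [← mul_assoc, h4, mul_assoc, h7, mul_assoc]
      | inv x _ hx =>
        obtain ⟨x', h2, h3, h4⟩ := hx
        refine ⟨x'⁻¹, N.inv_mem h2, ?_, ?_⟩
        · rw [QuotientGroup.mk_inv, h3]; rfl
        · rw [eq_inv_mul_iff_mul_eq, ← mul_assoc, ← h4, mul_inv_cancel_right]
    obtain ⟨y, hy, hy2, hy3⟩ := h1 ⟨(n : H ⧸ A), Subgroup.mem_map.2 ⟨n, hn, rfl⟩⟩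
    have h2 : y⁻¹ * n ∈ A := QuotientGroup.eq.1 hy2
    have h3 := A_comm h h2 g
    have h4 : n = y * (y⁻¹ * n) := by group
    rw [h4, ← mul_assoc, hy3, mul_assoc, ← h3, ← mul_assoc]
  have hinj : Function.Injective (fun g : (act A N).ker ⧸ A.subgroupOf (act A N).ker =>
      Quotient.liftOn' g (fun (g : (act A N).ker) (i : Fin 4) =>
        (⟨(g : H) * t i * (g : H)⁻¹ * (t i)⁻¹, hc g i⟩ : A)) (by
        intro g g' hgg
        funext i
        apply Subtype.ext
        have h1 : (g : H)⁻¹ * g' ∈ A := by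
          have := QuotientGroup.leftRel_apply.1 hgg
          exact Subgroup.mem_subgroupOf.1 this
        have h2 := A_comm h h1 (t i)
        show (g : H) * t i * (g : H)⁻¹ * (t i)⁻¹ = (g' : H) * t i * (g' : H)⁻¹ * (t i)⁻¹
        have h3 : (g' : H) * t i * (g' : H)⁻¹ = (g : H) * t i * (g : H)⁻¹ := by
          calc (g' : H) * t i * (g' : H)⁻¹ = g * (((g : H)⁻¹ * g') * t i) * (g' : H)⁻¹ := by group
            _ = g * (t i * ((g : H)⁻¹ * g')) * (g' : H)⁻¹ := by rw [h2]
            _ = (g : H) * t i * (g : H)⁻¹ := by group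
        rw [h3])) := by
    intro x y
    induction x using QuotientGroup.induction_on with
    | H g =>
      induction y using QuotientGroup.induction_on with
      | H g' =>
        intro hgg
        refine QuotientGroup.eq.2 (Subgroup.mem_subgroupOf.2 (hcen _ fun i => ?_))
        have h1 := congrArg Subtype.val (congrFun hgg i)
        have h2 : (g : H) * t i * (g : H)⁻¹ * (t i)⁻¹ = (g' : H) * t i * (g' : H)⁻¹ * (t i)⁻¹ := h1
        have h3 : (g : H) * t i * (g : H)⁻¹ = (g' : H) * t i * (g' : H)⁻¹ := mul_right_cancel h2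
        show ((g : H)⁻¹ * g') * t i = t i * ((g : H)⁻¹ * g')
        calc ((g : H)⁻¹ * g') * t i = (g : H)⁻¹ * (g' * t i * (g' : H)⁻¹) * g' := by group
          _ = (g : H)⁻¹ * (g * t i * (g : H)⁻¹) * g' := by rw [h3]
          _ = t i * ((g : H)⁻¹ * g') := by group
  have h1 := Nat.card_le_card_of_injective _ hinj
  have h2 : Nat.card (Fin 4 → A) = 16 := by
    rw [Nat.card_fun, card_A h h16]
    simp
  rw [h2] at h1
  have h3 : A.relIndex (act A N).ker ≤ 16 := h1
  have h4 := Subgroup.relIndex_mul_relIndex A N (act A N).ker h.AN hNK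
  rw [h16] at h4
  have h5 : N.relIndex (act A N).ker = 1 := by
    have h6 : 0 < N.relIndex (act A N).ker := Nat.pos_of_ne_zero Subgroup.FiniteIndex.index_ne_zero
    have h7 : 16 * N.relIndex (act A N).ker ≤ 16 := h4 ▸ h3
    omega
  exact le_antisymm (Subgroup.relIndex_eq_one.1 h5) hNK

include h h16 in
/-- `7` does not divide `|H|` -/
theorem not_seven : ¬ 7 ∣ Nat.card H := by
  haveI := h.An
  haveI := h.Nn
  intro hd
  haveI : Fact (Nat.Prime 7) := ⟨by norm_num⟩
  obtain ⟨g, hg⟩ := exists_prime_orderOf_dvd_card' 7 hd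
  have hgp : g ^ 7 ^ 1 = 1 := by rw [pow_one, ← hg, pow_orderOf_eq_one]
  have hcA := card_A h h16
  have hcN := card_N h h16
  have h1 := cent_modEq 7 hgp N (fun d hd => h.Nn.conj_mem d hd g)
  rw [hcN] at h1
  have h2 : Nat.card (N ⊓ Subgroup.centralizer {g} : Subgroup H) ∣ 32 := by
    rw [← hcN]
    exact Subgroup.card_dvd_of_le inf_le_left
  have h3 : Nat.card (N ⊓ Subgroup.centralizer {g} : Subgroup H) ≠ 32 := by
    intro h0
    have h4 : N ⊓ Subgroup.centralizer {g} = N := Subgroup.eq_of_le_of_card_ge inf_le_left (by rw [h0, hcN])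
    have h5 : g ∈ A := mem_A h fun n hn => by
      rw [← h4] at hn
      exact (Subgroup.mem_centralizer_singleton_iff.1 (Subgroup.mem_inf.1 hn).2).symm
    have h6 : orderOf g ∣ 2 := by
      have := orderOf_dvd_natCard (⟨g, h5⟩ : A)
      rwa [hcA, ← Subgroup.orderOf_coe] at this
    rw [hg] at h6
    norm_num at h6
  have h4 : Nat.card (N ⊓ Subgroup.centralizer {g} : Subgroup H) = 4 := by
    have h5 := Nat.le_of_dvd (by norm_num) h2
    have h6 : 32 % 7 = Nat.card (N ⊓ Subgroup.centralizer {g} : Subgroup H) % 7 := h1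
    generalize Nat.card (N ⊓ Subgroup.centralizer {g} : Subgroup H) = c at *
    interval_cases c <;> simp_all
  -- an element outside `A`
  obtain ⟨v, hv, hvA⟩ : ∃ v ∈ N ⊓ Subgroup.centralizer {g}, v ∉ A := by
    by_contra hcon
    push Not at hcon
    have := Subgroup.card_le_of_le (show N ⊓ Subgroup.centralizer {g} ≤ A from hcon)
    rw [h4, hcA] at this
    omega
  obtain ⟨hvN, hvg⟩ := Subgroup.mem_inf.1 hv
  have hvg' : v * g = g * v := Subgroup.mem_centralizer_singleton_iff.1 hvg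
  -- its centralizer
  set D := N ⊓ Subgroup.centralizer {v} with hD
  have hDc : Nat.card D = 16 := by
    have h5 : D.relIndex N ≤ 2 := by
      have hinj : Function.Injective (fun x : N ⧸ D.subgroupOf N =>
          Quotient.liftOn' x (fun (n : N) => (⟨(n : H) * v * (n : H)⁻¹ * v⁻¹, comm_mem h h16 n.2 hvN⟩ : A)) (by
            intro n n' hnn
            apply Subtype.ext
            have h1 : (n : H)⁻¹ * n' ∈ D := by
              have := QuotientGroup.leftRel_apply.1 hnn
              exact Subgroup.mem_subgroupOf.1 this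
            have h2 := Subgroup.mem_centralizer_singleton_iff.1 (Subgroup.mem_inf.1 h1).2
            show (n : H) * v * (n : H)⁻¹ * v⁻¹ = (n' : H) * v * (n' : H)⁻¹ * v⁻¹
            have h3 : (n' : H) * v * (n' : H)⁻¹ = (n : H) * v * (n : H)⁻¹ := by
              calc (n' : H) * v * (n' : H)⁻¹ = n * (((n : H)⁻¹ * n') * v) * (n' : H)⁻¹ := by group
                _ = n * (v * ((n : H)⁻¹ * n')) * (n' : H)⁻¹ := by rw [h2]
                _ = (n : H) * v * (n : H)⁻¹ := by group
            rw [h3])) := by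
        intro x y
        induction x using QuotientGroup.induction_on with
        | H n =>
          induction y using QuotientGroup.induction_on with
          | H n' =>
            intro hnn
            refine QuotientGroup.eq.2 (Subgroup.mem_subgroupOf.2 (Subgroup.mem_inf.2
              ⟨(n⁻¹ * n').2, Subgroup.mem_centralizer_singleton_iff.2 ?_⟩))
            have h1 := congrArg Subtype.val hnn
            have h2 : (n : H) * v * (n : H)⁻¹ * v⁻¹ = (n' : H) * v * (n' : H)⁻¹ * v⁻¹ := h1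
            have h3 : (n : H) * v * (n : H)⁻¹ = (n' : H) * v * (n' : H)⁻¹ := mul_right_cancel h2
            show ((n : H)⁻¹ * n') * v = v * ((n : H)⁻¹ * n')
            calc ((n : H)⁻¹ * n') * v = (n : H)⁻¹ * (n' * v * (n' : H)⁻¹) * n' := by group
              _ = (n : H)⁻¹ * (n * v * (n : H)⁻¹) * n' := by rw [h3]
              _ = v * ((n : H)⁻¹ * n') := by group
      have h6 := Nat.card_le_card_of_injective _ hinj
      rw [hcA] at h6
      exact h6
    have h6 : D.relIndex N ≠ 1 := by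
      intro h0
      have h7 := Subgroup.relIndex_eq_one.1 h0
      apply hvA
      refine mem_A h fun n hn => ?_
      exact (Subgroup.mem_centralizer_singleton_iff.1 (Subgroup.mem_inf.1 (h7 hn)).2).symm
    have h7 : D.relIndex N ≠ 0 := Subgroup.FiniteIndex.index_ne_zero
    have h8 := Subgroup.relIndex_mul_relIndex (⊥ : Subgroup H) D N bot_le inf_le_left
    rw [Subgroup.relIndex_bot_left, Subgroup.relIndex_bot_left, hcN] at h8
    have h9 : D.relIndex N = 2 := by omega
    rw [h9] at h8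
    omega
  have h5 := cent_modEq 7 hgp D (by
    intro d hd
    refine Subgroup.mem_inf.2 ⟨h.Nn.conj_mem d (Subgroup.mem_inf.1 hd).1 g,
      Subgroup.mem_centralizer_singleton_iff.2 ?_⟩
    have h6 := Subgroup.mem_centralizer_singleton_iff.1 (Subgroup.mem_inf.1 hd).2
    calc g * d * g⁻¹ * v = g * d * (g⁻¹ * (v * g)) * g⁻¹ := by group
      _ = g * d * (g⁻¹ * (g * v)) * g⁻¹ := by rw [hvg']
      _ = g * (d * v) * g⁻¹ := by group
      _ = g * (v * d) * g⁻¹ := by rw [h6]
      _ = (g * v) * d * g⁻¹ := by group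
      _ = (v * g) * d * g⁻¹ := by rw [hvg']
      _ = v * (g * d * g⁻¹) := by group)
  rw [hDc] at h5
  have h6 : D ⊓ Subgroup.centralizer {g} = N ⊓ Subgroup.centralizer {g} := by
    refine le_antisymm (inf_le_inf_right _ inf_le_left) fun y hy => ?_
    obtain ⟨hyN, hyg⟩ := Subgroup.mem_inf.1 hy
    refine Subgroup.mem_inf.2 ⟨Subgroup.mem_inf.2 ⟨hyN, ?_⟩, hyg⟩
    -- a group of order 4 is abelian
    haveI : Fact (Nat.Prime 2) := ⟨by norm_num⟩
    have h7 : IsMulCommutative (N ⊓ Subgroup.centralizer {g} : Subgroup H) :=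
      IsPGroup.isMulCommutative_of_card_eq_prime_sq (p := 2) (by rw [h4]; norm_num)
    rw [Subgroup.mem_centralizer_singleton_iff]
    exact congrArg Subtype.val (h7.is_comm.comm ⟨y, hy⟩ ⟨v, hv⟩)
  rw [h6, h4] at h5
  exact absurd h5 (by decide)

end main

/-- centralizers of the elements outside `N` -/
theorem cent_bound (h : Core A N C 3 1 a ψ) (h16 : A.relIndex N = 16) {x : H} (hx : x ∉ N) :
    cent x N ≤ 8 ∧ cent x (⊤ : Subgroup H) ≤ 32 := by
  haveI := h.An
  haveI := h.Nn
  have hker := ker_act h h16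
  have hcM := card_Ms h16
  have hcA := card_A h h16
  set Q := (act A N).range with hQ
  have hQd : Nat.card Q ∣ Nat.card H := by
    rw [hQ, ← Nat.card_congr (QuotientGroup.quotientKerEquivRange (act A N)).toEquiv]
    exact Subgroup.card_quotient_dvd_card _
  have h3 : ¬ 3 ∣ Nat.card Q := fun hd => h.coprime (hd.trans hQd)
  have h7 : ¬ 7 ∣ Nat.card Q := fun hd => not_seven h h16 (hd.trans hQd)
  have hirr : ∀ K : Subgroup (Ms A N), (∀ q : Q, ∀ m ∈ K, q • m ∈ K) → K = ⊥ ∨ K = ⊤ := by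
    intro K hK
    exact inv_sub h.AN h.min K fun g m hm => hK ⟨act A N g, ⟨g, rfl⟩⟩ m hm
  set q : Q := ⟨act A N x, ⟨x, rfl⟩⟩ with hq
  have hq1 : q ≠ 1 := by
    intro h0
    apply hx
    rw [← hker, MonoidHom.mem_ker]
    exact congrArg Subtype.val h0
  obtain ⟨k1, k2⟩ := key (M := Ms A N) hcM h3 h7 hirr hq1
  -- the centralizer in `N`
  have e1 : cent x N ≤ 2 * Nat.card (fix (Ms A N) q) := by
    rw [cent_eq_card]
    have hA : A ≤ N ⊓ Subgroup.centralizer {x} := fun y hy => Subgroup.mem_inf.2 ⟨h.AN hy,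
      Subgroup.mem_centralizer_singleton_iff.2 (A_comm h hy x)⟩
    have h4 := Subgroup.relIndex_mul_relIndex (⊥ : Subgroup H) A _ bot_le hA
    rw [Subgroup.relIndex_bot_left, Subgroup.relIndex_bot_left, hcA] at h4
    rw [← h4]
    refine Nat.mul_le_mul_left _ ?_
    have h5 := Subgroup.relIndex_ker (K := N ⊓ Subgroup.centralizer ({x} : Set H)) (QuotientGroup.mk' A)
    rw [QuotientGroup.ker_mk'] at h5
    rw [h5]
    have hmem : ∀ z ∈ (N ⊓ Subgroup.centralizer ({x} : Set H)).map (QuotientGroup.mk' A),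
        ∃ hz : z ∈ Ms A N, (⟨z, hz⟩ : Ms A N) ∈ fix (Ms A N) q := by
      intro z hz
      obtain ⟨y, hy, rfl⟩ := Subgroup.mem_map.1 hz
      obtain ⟨hyN, hyx⟩ := Subgroup.mem_inf.1 hy
      refine ⟨Subgroup.mem_map.2 ⟨y, hyN, rfl⟩, ?_⟩
      rw [mem_fix]
      apply Subtype.ext
      have h6 := act_apply (A := A) (N := N) x ⟨(y : H ⧸ A), Subgroup.mem_map.2 ⟨y, hyN, rfl⟩⟩
      refine h6.trans ?_
      have h7 := Subgroup.mem_centralizer_singleton_iff.1 hyx
      show (x : H ⧸ A) * (y : H ⧸ A) * (x : H ⧸ A)⁻¹ = (y : H ⧸ A)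
      rw [mul_inv_eq_iff_eq_mul, ← QuotientGroup.mk_mul, ← QuotientGroup.mk_mul, h7]
    refine Nat.card_le_card_of_injective
      (fun z : (N ⊓ Subgroup.centralizer ({x} : Set H)).map (QuotientGroup.mk' A) =>
        (⟨⟨z.1, (hmem z.1 z.2).choose⟩, (hmem z.1 z.2).choose_spec⟩ : fix (Ms A N) q)) ?_
    intro z z' hzz
    exact Subtype.ext (congrArg (fun t : fix (Ms A N) q => ((t : Ms A N) : H ⧸ A)) hzz)
  refine ⟨e1.trans (by omega), ?_⟩
  -- the centralizer in `H`
  have e2 : cent x (⊤ : Subgroup H) ≤ cent x N * Nat.card (Subgroup.centralizer ({q} : Set Q)) := by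
    rw [cent_top_eq x N]
    refine Nat.mul_le_mul_left _ ?_
    have h5 := Subgroup.relIndex_ker (K := Subgroup.centralizer ({x} : Set H)) (act A N)
    rw [hker] at h5
    rw [h5]
    have hmem : ∀ z ∈ (Subgroup.centralizer ({x} : Set H)).map (act A N),
        ∃ hz : z ∈ Q, (⟨z, hz⟩ : Q) ∈ Subgroup.centralizer ({q} : Set Q) := by
      intro z hz
      obtain ⟨y, hy, rfl⟩ := Subgroup.mem_map.1 hz
      refine ⟨⟨y, rfl⟩, ?_⟩
      rw [Subgroup.mem_centralizer_singleton_iff]
      apply Subtype.ext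
      show act A N y * act A N x = act A N x * act A N y
      rw [← map_mul, ← map_mul, Subgroup.mem_centralizer_singleton_iff.1 hy]
    refine Nat.card_le_card_of_injective
      (fun z : (Subgroup.centralizer ({x} : Set H)).map (act A N) =>
        (⟨⟨z.1, (hmem z.1 z.2).choose⟩, (hmem z.1 z.2).choose_spec⟩ : Subgroup.centralizer ({q} : Set Q))) ?_
    intro z z' hzz
    exact Subtype.ext (congrArg (fun t : Subgroup.centralizer ({q} : Set Q) => ((t : Q) : MulAut (Ms A N))) hzz)
  calc cent x (⊤ : Subgroup H) ≤ cent x N * Nat.card (Subgroup.centralizer ({q} : Set Q)) := e2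
    _ ≤ (2 * Nat.card (fix (Ms A N) q)) * Nat.card (Subgroup.centralizer ({q} : Set Q)) := Nat.mul_le_mul_right _ e1
    _ = 2 * (Nat.card (fix (Ms A N) q) * Nat.card (Subgroup.centralizer ({q} : Set Q))) := by ring
    _ ≤ 2 * 16 := Nat.mul_le_mul_left _ k2
    _ = 32 := by norm_num

/-- all subgroups of `H` have at most `40` classes -/
theorem core_rel16_all (h : Core A N C 3 1 a ψ) (h16 : A.relIndex N = 16) (R : Subgroup H) :
    Nat.card (ConjClasses R) ≤ 40 := by
  classical
  haveI := Fintype.ofFinite R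
  haveI := h.Nn
  set Y : Subgroup R := N.subgroupOf R with hY
  haveI := Fintype.ofFinite Y
  have hR : 0 < Nat.card R := Nat.card_pos
  have hYc : Nat.card Y ≤ 32 := by
    rw [← card_N h h16]
    refine Nat.card_le_card_of_injective (fun y : Y => (⟨((y : R) : H), Subgroup.mem_subgroupOf.1 y.2⟩ : N)) ?_
    intro y y' hyy
    exact Subtype.ext (Subtype.ext (congrArg (fun t : N => (t : H)) hyy))
  -- bounds
  have hb : ∀ x : R, x ∉ Y → cent x Y ≤ 8 ∧ cent x (⊤ : Subgroup R) ≤ 32 := by
    intro x hx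
    have hx' : (x : H) ∉ N := fun hh => hx (Subgroup.mem_subgroupOf.2 hh)
    obtain ⟨h1, h2⟩ := cent_bound h h16 hx'
    constructor
    · refine le_trans ?_ h1
      unfold cent
      refine Nat.card_le_card_of_injective (fun y : {y : R // y ∈ Y ∧ Commute x y} =>
        (⟨((y : R) : H), Subgroup.mem_subgroupOf.1 y.2.1, congrArg Subtype.val y.2.2⟩ :
          {y : H // y ∈ N ∧ Commute (x : H) y})) ?_
      intro y y' hyy
      exact Subtype.ext (Subtype.ext (congrArg (fun t : {y : H // y ∈ N ∧ Commute (x : H) y} => (t : H)) hyy))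
    · refine le_trans ?_ h2
      unfold cent
      refine Nat.card_le_card_of_injective (fun y : {y : R // y ∈ (⊤ : Subgroup R) ∧ Commute x y} =>
        (⟨((y : R) : H), Subgroup.mem_top _, congrArg Subtype.val y.2.2⟩ :
          {y : H // y ∈ (⊤ : Subgroup H) ∧ Commute (x : H) y})) ?_
      intro y y' hyy
      exact Subtype.ext (Subtype.ext (congrArg
        (fun t : {y : H // y ∈ (⊤ : Subgroup H) ∧ Commute (x : H) y} => (t : H)) hyy))
  have hcentY : ∀ x : R, cent x Y ≤ 32 := by
    intro x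
    rw [cent_eq_card]
    exact (Subgroup.card_le_of_le inf_le_left).trans hYc
  refine Nat.le_of_mul_le_mul_right ?_ hR
  rw [card_conjClasses_mul_card]
  have h1 : ∑ x : R, cent x (⊤ : Subgroup R) =
      ∑ x : R, (if x ∈ Y then cent x (⊤ : Subgroup R) else 0) + ∑ x : R, (if x ∈ Y then 0 else cent x (⊤ : Subgroup R)) := by
    rw [← Finset.sum_add_distrib]
    refine Finset.sum_congr rfl fun x _ => ?_
    by_cases hx : x ∈ Y
    · rw [if_pos hx, if_pos hx, add_zero]
    · rw [if_neg hx, if_neg hx, zero_add]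
  have h2 : ∑ x : R, (if x ∈ Y then cent x (⊤ : Subgroup R) else 0) = ∑ x : R, cent x Y := by
    rw [sum_cent_top_aux Y, ← Finset.sum_filter]
    exact Finset.sum_subtype _ (fun x => by simp) (fun x => cent x (⊤ : Subgroup R))
  rw [h1, h2, ← Finset.sum_add_distrib]
  calc ∑ x : R, (cent x Y + if x ∈ Y then 0 else cent x (⊤ : Subgroup R)) ≤ ∑ _x : R, 40 := by
        refine Finset.sum_le_sum fun x _ => ?_
        by_cases hx : x ∈ Y
        · rw [if_pos hx, add_zero]
          exact (hcentY x).trans (by norm_num)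
        · rw [if_neg hx]
          obtain ⟨h3, h4⟩ := hb x hx
          omega
    _ = 40 * Nat.card R := by
        rw [Finset.sum_const, Finset.card_univ, smul_eq_mul, mul_comm, Nat.card_eq_fintype_card]

end core

/-- Task 2298 (helper960). -/
theorem core_rel16 {H : Type} [Group H] {A N C : Subgroup H} {a : ℕ} {F : Type} [Field F] {ψ : C →* GL (Fin a) F}
    (h : Core A N C 3 1 a ψ) (h16 : A.relIndex N = 16) (R : Subgroup H) (_hR : Two R) :
    Nat.card (ConjClasses R) ≤ 40 := by
  haveI := h.fin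
  exact core_rel16_all h h16 R

end Cfsg.Agent.H902.Kgv
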