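import Mathlib
import Cfsg.Agent.S0144
import Cfsg.Agent.Lib.SolvableNormalP

/-!
# Groups of order prime to 3 acting irreducibly on a group of order 16 (for S4968)

`key` : if `Q` has order prime to `3` and `7` and acts faithfully and irreducibly on a group `M` of order `16`, then for
every `x ≠ 1` of `Q`: `|C_M(x)| ≤ 4` and `|C_M(x)| |C_Q(x)| ≤ 16`.
-/

set_option autoImplicit false
set_option linter.unusedSectionVars false
set_option linter.style.haveILetI false

namespace Cfsg.Agent.H902.Kgv

section key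

variable {Q M : Type*} [Group Q] [Finite Q] [Group M] [Finite M] [MulDistribMulAction Q M]

/-- the fixed points of `x` in `M` -/
def fix (M : Type*) [Group M] {Q : Type*} [Group Q] [MulDistribMulAction Q M] (x : Q) : Subgroup M where
  carrier := {m | x • m = m}
  one_mem' := smul_one x
  mul_mem' := by
    intro a b ha hb
    show x • (a * b) = a * b
    rw [smul_mul', show x • a = a from ha, show x • b = b from hb]
  inv_mem' := by
    intro a ha
    show x • a⁻¹ = a⁻¹
    rw [smul_inv', show x • a = a from ha]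

theorem mem_fix {x : Q} {m : M} : m ∈ fix M x ↔ x • m = m := Iff.rfl

theorem fix_eq_top [FaithfulSMul Q M] {x : Q} (h : fix M x = ⊤) : x = 1 := by
  refine FaithfulSMul.eq_of_smul_eq_smul (α := M) fun m => ?_
  rw [one_smul]
  exact mem_fix.1 (h ▸ Subgroup.mem_top m)

/-- `|M| ≡ |C_M(x)|` modulo `r` for `x` of order a power of `r`. -/
theorem card_modEq (r : ℕ) [Fact r.Prime] {x : Q} {k : ℕ} (hx : orderOf x = r ^ k) :
    Nat.card M ≡ Nat.card (fix M x) [MOD r] := by
  have hp : IsPGroup r (Subgroup.zpowers x) := IsPGroup.of_card (n := k) (by rw [Nat.card_zpowers, hx])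
  have h := hp.card_modEq_card_fixedPoints M
  have h2 : Nat.card (MulAction.fixedPoints (Subgroup.zpowers x) M) = Nat.card (fix M x) := by
    refine Nat.card_congr (Equiv.subtypeEquivRight fun m => ?_)
    constructor
    · intro hm
      exact hm ⟨x, Subgroup.mem_zpowers x⟩
    · intro hm
      rintro ⟨y, hy⟩
      obtain ⟨i, rfl⟩ := hy
      show x ^ i • m = m
      have h1 : x ∈ MulAction.stabilizer Q m := hm
      exact (MulAction.stabilizer Q m).zpow_mem h1 i
  rwa [h2] at h

theorem card_fix_dvd (x : Q) : Nat.card (fix M x) ∣ Nat.card M := Subgroup.card_subgroup_dvd_card _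

/-- A subgroup of prime power order has fixed points. -/
theorem exists_fix (r : ℕ) [Fact r.Prime] {E : Subgroup Q} (hE : IsPGroup r E) (hM : r ∣ Nat.card M) :
    ∃ m : M, m ≠ 1 ∧ ∀ e ∈ E, e • m = m := by
  have h := hE.card_modEq_card_fixedPoints M
  have h1 : (1 : M) ∈ MulAction.fixedPoints E M := fun e => smul_one (e : Q)
  have h2 : r ∣ Nat.card (MulAction.fixedPoints E M) := by
    rw [← Nat.modEq_zero_iff_dvd] at hM ⊢
    exact h.symm.trans hM
  have h3 : 1 < Nat.card (MulAction.fixedPoints E M) := by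
    have h4 : 0 < Nat.card (MulAction.fixedPoints E M) := Nat.card_pos_iff.2 ⟨⟨⟨1, h1⟩⟩, inferInstance⟩
    exact lt_of_lt_of_le (Nat.Prime.one_lt Fact.out) (Nat.le_of_dvd h4 h2)
  obtain ⟨⟨m, hm⟩, hne⟩ : ∃ m : MulAction.fixedPoints E M, m ≠ ⟨1, h1⟩ := by
    haveI : Nontrivial (MulAction.fixedPoints E M) := (Finite.one_lt_card_iff_nontrivial).1 h3
    exact exists_ne _
  refine ⟨m, fun h => hne (Subtype.ext h), fun e he => hm ⟨e, he⟩⟩

section main

variable [FaithfulSMul Q M] (hM : Nat.card M = 16) (h3 : ¬ 3 ∣ Nat.card Q) (h7 : ¬ 7 ∣ Nat.card Q)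
  (hirr : ∀ K : Subgroup M, (∀ q : Q, ∀ m ∈ K, q • m ∈ K) → K = ⊥ ∨ K = ⊤)

include hM in
theorem card_fix_le {x : Q} (hx : x ≠ 1) : Nat.card (fix M x) ∣ 16 ∧ Nat.card (fix M x) ≠ 16 ∧
    Nat.card (fix M x) ≤ 8 := by
  have h1 : Nat.card (fix M x) ∣ 16 := hM ▸ card_fix_dvd x
  have h2 : Nat.card (fix M x) ≠ 16 := by
    intro h
    exact hx (fix_eq_top (Subgroup.eq_top_of_card_eq _ (by rw [h, hM])))
  refine ⟨h1, h2, ?_⟩
  have h3 : Nat.card (fix M x) ≤ 16 := Nat.le_of_dvd (by norm_num) h1
  generalize Nat.card (fix M x) = c at *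
  interval_cases c <;> simp_all

include hM h3 h7 in
/-- only `2` and `5` divide `|Q|` -/
theorem prime_dvd {r : ℕ} (hr : r.Prime) (hd : r ∣ Nat.card Q) : r = 2 ∨ r = 5 := by
  haveI : Fact r.Prime := ⟨hr⟩
  obtain ⟨x, hx⟩ := exists_prime_orderOf_dvd_card' r hd
  have hx1 : x ≠ 1 := by
    rintro rfl
    rw [orderOf_one] at hx
    exact hr.one_lt.ne hx
  obtain ⟨h1, h2, h4⟩ := card_fix_le (M := M) hM hx1
  have h5 := card_modEq (M := M) r (k := 1) (by rw [hx, pow_one])
  rw [hM] at h5
  have h6 : r ∣ 16 - Nat.card (fix M x) := (Nat.modEq_iff_dvd' (by omega)).1 h5.symm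
  generalize Nat.card (fix M x) = c at *
  have hr3 : r ≠ 3 := by rintro rfl; exact h3 hd
  have hr7 : r ≠ 7 := by rintro rfl; exact h7 hd
  have hrle : r ≤ 16 := by
    have := Nat.le_of_dvd (by omega) h6
    omega
  have hc : c = 1 ∨ c = 2 ∨ c = 4 ∨ c = 8 := by
    interval_cases c <;> simp_all
  clear h1 h2 h4 h5 hx hx1 hd
  rcases hc with rfl | rfl | rfl | rfl <;> interval_cases r <;>
    first | omega | (revert hr; norm_num)

include hM in
/-- elements of order `5` act freely -/
theorem fix_five {x : Q} (hx : orderOf x = 5) : fix M x = ⊥ := by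
  have hx1 : x ≠ 1 := by
    rintro rfl
    rw [orderOf_one] at hx
    omega
  obtain ⟨h1, h2, h4⟩ := card_fix_le (M := M) hM hx1
  haveI : Fact (Nat.Prime 5) := ⟨by norm_num⟩
  have h5 := card_modEq (M := M) 5 (k := 1) (by rw [hx, pow_one])
  rw [hM] at h5
  have h6 : 5 ∣ 16 - Nat.card (fix M x) := (Nat.modEq_iff_dvd' (by omega)).1 h5.symm
  have h7 : Nat.card (fix M x) = 1 := by
    generalize Nat.card (fix M x) = c at *
    interval_cases c <;> simp_all
  exact Subgroup.card_eq_one.1 h7

include hM in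
/-- `25` does not divide `|Q|` -/
theorem not_dvd : ¬ 25 ∣ Nat.card Q := by
  intro hd
  haveI : Fact (Nat.Prime 5) := ⟨by norm_num⟩
  obtain ⟨B, hB⟩ := Sylow.exists_subgroup_card_pow_prime 5 (n := 2) (G := Q) (by simpa using hd)
  haveI : Nontrivial M := (Finite.one_lt_card_iff_nontrivial).1 (by rw [hM]; norm_num)
  obtain ⟨m, hm⟩ := exists_ne (1 : M)
  have hinj : Function.Injective (fun b : B => (b : Q) • m) := by
    intro b c hbc
    by_contra hne
    have hbc' : ((c⁻¹ * b : B) : Q) • m = m := by
      have h0 : (b : Q) • m = (c : Q) • m := hbc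
      show ((c : Q)⁻¹ * (b : Q)) • m = m
      rw [mul_smul, h0, inv_smul_smul]
    have h1 : c⁻¹ * b ≠ 1 := fun h => hne (inv_mul_eq_one.1 h).symm
    have h2 : ((c⁻¹ * b : B) : Q) ≠ 1 := fun h => h1 (Subtype.ext h)
    -- a power of order 5
    have h3 : orderOf ((c⁻¹ * b : B) : Q) ∣ 5 ^ 2 := by
      rw [← hB, Subgroup.orderOf_coe]
      exact orderOf_dvd_natCard _
    obtain ⟨k, hk, hk2⟩ := (Nat.dvd_prime_pow (by norm_num)).1 h3
    have hk0 : k ≠ 0 := by
      rintro rfl
      rw [pow_zero, orderOf_eq_one_iff] at hk2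
      exact h2 hk2
    have h4 : orderOf (((c⁻¹ * b : B) : Q) ^ 5 ^ (k - 1)) = 5 := by
      rw [orderOf_pow_of_dvd (by positivity) (by rw [hk2]; exact pow_dvd_pow _ (by omega)), hk2,
        Nat.pow_div (by omega) (by norm_num)]
      have : k - (k - 1) = 1 := by omega
      rw [this, pow_one]
    have h5 := fix_five (M := M) hM h4
    have h6 : m ∈ fix M (((c⁻¹ * b : B) : Q) ^ 5 ^ (k - 1)) := by
      have h7 : ((c⁻¹ * b : B) : Q) ∈ MulAction.stabilizer Q m := hbc'
      exact (MulAction.stabilizer Q m).pow_mem h7 _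
    rw [h5, Subgroup.mem_bot] at h6
    exact hm h6
  have h := Nat.card_le_card_of_injective _ hinj
  rw [hB, hM] at h
  norm_num at h

include hM h3 h7 hirr in
/-- there is a normal subgroup of order `5` -/
theorem exists_five : ∃ E : Subgroup Q, E.Normal ∧ Nat.card E = 5 := by
  -- the order of `Q`
  have hcard : ∃ a b : ℕ, Nat.card Q = 2 ^ a * 5 ^ b := by
    refine ⟨(Nat.card Q).factorization 2, (Nat.card Q).factorization 5, ?_⟩
    have h0 : Nat.card Q ≠ 0 := Nat.card_pos.ne'
    refine Nat.eq_of_factorization_eq h0 (by positivity) fun p => ?_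
    rw [Nat.factorization_mul (by positivity) (by positivity), Nat.Prime.factorization_pow (by norm_num),
      Nat.Prime.factorization_pow (by norm_num), Finsupp.add_apply]
    by_cases hp : p ∣ Nat.card Q ∧ p.Prime
    · rcases prime_dvd (M := M) hM h3 h7 hp.2 hp.1 with rfl | rfl <;> simp
    · have h1 : (Nat.card Q).factorization p = 0 := by
        by_cases hpp : p.Prime
        · exact Nat.factorization_eq_zero_of_not_dvd fun h => hp ⟨h, hpp⟩
        · exact Nat.factorization_eq_zero_of_not_prime _ hpp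
      rw [h1]
      by_cases h2 : p = 2
      · subst h2
        rw [Finsupp.single_eq_same, h1]
        simp
      · by_cases h5 : p = 5
        · subst h5
          simp [h1]
        · rw [Finsupp.single_apply, Finsupp.single_apply, if_neg (Ne.symm h2), if_neg (Ne.symm h5), add_zero]
  obtain ⟨a, b, hab⟩ := hcard
  haveI : Group.IsSolvable Q := Cfsg.Agent.S0144.result 2 5 a b (by norm_num) (by norm_num) hab
  haveI : Nontrivial M := (Finite.one_lt_card_iff_nontrivial).1 (by rw [hM]; norm_num)
  haveI : Nontrivial Q := by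
    by_contra hcon
    rw [not_nontrivial_iff_subsingleton] at hcon
    haveI := hcon
    -- a subgroup of order 2
    haveI : Fact (Nat.Prime 2) := ⟨by norm_num⟩
    obtain ⟨B, hB⟩ := Sylow.exists_subgroup_card_pow_prime 2 (n := 1) (G := M) (by rw [hM]; norm_num)
    rcases hirr B (fun q m hm => by rw [Subsingleton.elim q 1, one_smul]; exact hm) with h | h
    · rw [h, Subgroup.card_bot] at hB
      norm_num at hB
    · rw [h, Subgroup.card_top, hM] at hB
      norm_num at hB
  obtain ⟨p, E, hp, hEn, hEp, -, hE1⟩ := Cfsg.Agent.Lib.SolvableNormalP.exists_normal_pSubgroup Q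
  haveI : Fact p.Prime := ⟨hp⟩
  have hpd : p ∣ Nat.card E := by
    obtain ⟨n, hc⟩ := IsPGroup.iff_card.1 hEp
    rw [hc]
    refine dvd_pow_self p fun hn => hE1 ?_
    rw [hn, pow_zero] at hc
    exact Subgroup.card_eq_one.1 hc
  rcases prime_dvd (M := M) hM h3 h7 hp (hpd.trans (Subgroup.card_subgroup_dvd_card E)) with rfl | rfl
  · exfalso
    obtain ⟨m, hm1, hm⟩ := exists_fix (M := M) 2 hEp (by rw [hM]; norm_num)
    -- the fixed points of `E` form an invariant subgroup
    let K : Subgroup M :=
      { carrier := {m | ∀ e ∈ E, e • m = m}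
        one_mem' := fun e _ => smul_one e
        mul_mem' := by
          intro a b ha hb e he
          rw [smul_mul', ha e he, hb e he]
        inv_mem' := by
          intro a ha e he
          rw [smul_inv', ha e he] }
    have hK : ∀ q : Q, ∀ m ∈ K, q • m ∈ K := by
      intro q m hm e he
      have h1 : q⁻¹ * e * q ∈ E := by
        have := hEn.conj_mem e he q⁻¹
        simpa using this
      have h2 := hm _ h1
      have h4 : e • q • m = q • ((q⁻¹ * e * q) • m) := by
        rw [← mul_smul, ← mul_smul]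
        congr 1
        group
      rw [h4, h2]
    rcases hirr K hK with h | h
    · have : m ∈ K := hm
      rw [h, Subgroup.mem_bot] at this
      exact hm1 this
    · apply hE1
      rw [Subgroup.eq_bot_iff_forall]
      intro e he
      refine fix_eq_top (M := M) (eq_top_iff.2 fun m _ => ?_)
      have : m ∈ K := h ▸ Subgroup.mem_top m
      exact this e he
  · refine ⟨E, hEn, ?_⟩
    obtain ⟨n, hn⟩ := IsPGroup.iff_card.1 hEp
    have h1 : n ≠ 0 := by
      rintro rfl
      rw [hn] at hpd
      norm_num at hpd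
    have h2 : n < 2 := by
      by_contra hcon
      apply not_dvd (Q := Q) (M := M) hM
      refine dvd_trans ?_ (Subgroup.card_subgroup_dvd_card E)
      rw [hn]
      exact pow_dvd_pow 5 (show 2 ≤ n by omega)
    have h3 : n = 1 := by omega
    rw [hn, h3, pow_one]

include hM in
/-- an element of order `5` acts irreducibly -/
theorem five_irr {z : Q} (hz : orderOf z = 5) (K : Subgroup M) (hK : ∀ m ∈ K, z • m ∈ K) : K = ⊥ ∨ K = ⊤ := by
  haveI : Fact (Nat.Prime 5) := ⟨by norm_num⟩
  have hKz : ∀ i : ℕ, ∀ m ∈ K, z ^ i • m ∈ K := by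
    intro i
    induction i with
    | zero => intro m hm; rwa [pow_zero, one_smul]
    | succ i ih => intro m hm; rw [pow_succ, mul_smul]; exact ih _ (hK m hm)
  have hp : IsPGroup 5 (Subgroup.zpowers z) := IsPGroup.of_card (n := 1) (by rw [Nat.card_zpowers, hz, pow_one])
  let S : SubMulAction (Subgroup.zpowers z) M :=
    { carrier := K
      smul_mem' := by
        rintro ⟨y, hy⟩ m hm
        obtain ⟨i, rfl⟩ := (Submonoid.mem_powers_iff _ _).1 (mem_powers_iff_mem_zpowers.2 hy)
        exact hKz i m hm }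
  have h := hp.card_modEq_card_fixedPoints S
  have h1 : Nat.card S = Nat.card K := rfl
  have h2 : Nat.card (MulAction.fixedPoints (Subgroup.zpowers z) S) = 1 := by
    rw [Nat.card_eq_one_iff_unique]
    refine ⟨⟨?_⟩, ⟨⟨⟨1, K.one_mem⟩, fun y => Subtype.ext (smul_one (y : Q))⟩⟩⟩
    have key : ∀ a : MulAction.fixedPoints (Subgroup.zpowers z) S, ((a : S) : M) = 1 := by
      rintro ⟨⟨a, ha⟩, ha2⟩
      have h3 : z • a = a := congrArg Subtype.val (ha2 ⟨z, Subgroup.mem_zpowers z⟩)
      have h4 : a ∈ fix M z := h3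
      rw [fix_five hM hz, Subgroup.mem_bot] at h4
      exact h4
    intro a b
    exact Subtype.ext (Subtype.ext ((key a).trans (key b).symm))
  rw [h1, h2] at h
  have h3 : Nat.card K ∣ 16 := hM ▸ Subgroup.card_subgroup_dvd_card K
  have h5 : Nat.card K = 1 ∨ Nat.card K = 16 := by
    have h4 : Nat.card K ≤ 16 := Nat.le_of_dvd (by norm_num) h3
    have h6 : Nat.card K % 5 = 1 := h
    generalize Nat.card K = c at *
    interval_cases c <;> simp_all
  rcases h5 with h5 | h5
  · exact Or.inl (Subgroup.card_eq_one.1 h5)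
  · exact Or.inr (Subgroup.eq_top_of_card_eq _ (by rw [h5, hM]))

include hM in
/-- what commutes with an element of order `5` acts freely -/
theorem fix_comm {z g : Q} (hz : orderOf z = 5) (hc : g * z = z * g) (hg : g ≠ 1) : fix M g = ⊥ := by
  rcases five_irr (M := M) hM hz (fix M g) (fun m hm => by
    rw [mem_fix] at hm ⊢
    rw [← mul_smul, hc, mul_smul, hm]) with h | h
  · exact h
  · exact absurd (fix_eq_top h) hg

include hM h3 h7 in
/-- the centralizer of an element of order `5` -/
theorem card_cent_five {z : Q} (hz : orderOf z = 5) : Nat.card (Subgroup.centralizer ({z} : Set Q)) = 5 := by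
  have h1 : ∀ {r : ℕ}, r.Prime → r ∣ Nat.card (Subgroup.centralizer ({z} : Set Q)) → r = 5 := by
    intro r hr hd
    haveI : Fact r.Prime := ⟨hr⟩
    rcases prime_dvd (M := M) hM h3 h7 hr (hd.trans (Subgroup.card_subgroup_dvd_card _)) with rfl | h
    · exfalso
      obtain ⟨g, hg⟩ := exists_prime_orderOf_dvd_card' 2 hd
      have hg2 : orderOf (g : Q) = 2 := by rw [Subgroup.orderOf_coe, hg]
      have hg1 : (g : Q) ≠ 1 := by
        intro h
        rw [h, orderOf_one] at hg2
        omega
      have hc : (g : Q) * z = z * g := (Subgroup.mem_centralizer_singleton_iff.1 g.2)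
      have h5 := fix_comm (M := M) hM hz hc hg1
      have h6 := card_modEq (M := M) 2 (k := 1) (by rw [hg2, pow_one])
      rw [hM, h5, Subgroup.card_bot] at h6
      exact absurd h6 (by decide)
    · exact h
  have h2 := Nat.eq_prime_pow_of_unique_prime_dvd (Nat.card_pos (α := Subgroup.centralizer ({z} : Set Q))).ne' h1
  set n := (Nat.card (Subgroup.centralizer ({z} : Set Q))).primeFactorsList.length with hn
  have h4 : n < 2 := by
    by_contra hcon
    apply not_dvd (Q := Q) (M := M) hM
    refine dvd_trans ?_ (Subgroup.card_subgroup_dvd_card (Subgroup.centralizer ({z} : Set Q)))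
    rw [h2]
    exact pow_dvd_pow 5 (show 2 ≤ n by omega)
  have h5 : 5 ∣ Nat.card (Subgroup.centralizer ({z} : Set Q)) := by
    have h6 : z ∈ Subgroup.centralizer ({z} : Set Q) := Subgroup.mem_centralizer_singleton_iff.2 rfl
    have h7 := orderOf_dvd_natCard (⟨z, h6⟩ : Subgroup.centralizer ({z} : Set Q))
    rwa [← Subgroup.orderOf_coe, hz] at h7
  interval_cases n
  · rw [h2] at h5
    norm_num at h5
  · rw [h2, pow_one]

include hM h3 h7 hirr in
/-- centralizers in `Q` and in `M` -/
theorem key {x : Q} (hx : x ≠ 1) : Nat.card (fix M x) ≤ 4 ∧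
    Nat.card (fix M x) * Nat.card (Subgroup.centralizer ({x} : Set Q)) ≤ 16 := by
  obtain ⟨E, hEn, hE⟩ := exists_five (M := M) hM h3 h7 hirr
  haveI := hEn
  have ho : ∀ z ∈ E, z ≠ 1 → orderOf z = 5 := by
    intro z hz hz1
    have h1 : orderOf z ∣ 5 := by
      have := orderOf_dvd_natCard (⟨z, hz⟩ : E)
      rwa [hE, ← Subgroup.orderOf_coe] at this
    rcases (Nat.dvd_prime (by norm_num)).1 h1 with h2 | h2
    · exact absurd (orderOf_eq_one_iff.1 h2) hz1
    · exact h2
  haveI : Fact (Nat.Prime 5) := ⟨by norm_num⟩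
  haveI : IsCyclic E := isCyclic_of_prime_card hE
  have hcE : ∀ z ∈ E, z ≠ 1 → ∀ g : Q, g * z = z * g → g ∈ E := by
    intro z hz hz1 g hg
    have h1 : E ≤ Subgroup.centralizer ({z} : Set Q) := by
      intro e he
      rw [Subgroup.mem_centralizer_singleton_iff]
      have h2 := IsCyclic.commGroup (α := E)
      exact congrArg Subtype.val (IsMulCommutative.is_comm.comm (⟨e, he⟩ : E) ⟨z, hz⟩)
    have h2 : E = Subgroup.centralizer ({z} : Set Q) :=
      Subgroup.eq_of_le_of_card_ge h1 (by rw [hE, card_cent_five (M := M) hM h3 h7 (ho z hz hz1)])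
    rw [h2, Subgroup.mem_centralizer_singleton_iff]
    exact hg
  by_cases hxE : x ∈ E
  · have h1 := ho x hxE hx
    rw [fix_five hM h1, Subgroup.card_bot, card_cent_five (M := M) hM h3 h7 h1]
    norm_num
  · have h4 : Nat.card (fix M x) ≤ 4 := by
      haveI : Nontrivial E := (Finite.one_lt_card_iff_nontrivial).1 (by rw [hE]; norm_num)
      obtain ⟨⟨z, hz⟩, hz1⟩ := exists_ne (1 : E)
      have hz1' : z ≠ 1 := fun h => hz1 (Subtype.ext h)
      have hdis : Disjoint (fix M x) (fix M (z * x * z⁻¹)) := by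
        rw [disjoint_iff, Subgroup.eq_bot_iff_forall]
        intro m hm
        obtain ⟨hm1, hm2⟩ := Subgroup.mem_inf.1 hm
        have h5 : z * (x * z⁻¹ * x⁻¹) ∈ E := E.mul_mem hz (hEn.conj_mem _ (E.inv_mem hz) x)
        have h6 : z * (x * z⁻¹ * x⁻¹) ≠ 1 := by
          intro h
          apply hxE
          refine hcE z hz hz1' x ?_
          have h7 : x * z⁻¹ * x⁻¹ = z⁻¹ := (eq_inv_of_mul_eq_one_right h)
          have h8 : x * z⁻¹ = z⁻¹ * x := mul_inv_eq_iff_eq_mul.1 h7
          calc x * z = z * (z⁻¹ * x) * z := by group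
            _ = z * (x * z⁻¹) * z := by rw [h8]
            _ = z * x := by group
        have h7 := fix_five (M := M) hM (ho _ h5 h6)
        have h8 : m ∈ fix M (z * (x * z⁻¹ * x⁻¹)) := by
          rw [mem_fix] at hm1 hm2 ⊢
          have h9 : z * (x * z⁻¹ * x⁻¹) = (z * x * z⁻¹) * x⁻¹ := by group
          rw [h9, mul_smul, show x⁻¹ • m = m from by rw [inv_smul_eq_iff, hm1], hm2]
        rw [h7, Subgroup.mem_bot] at h8
        exact h8
      have hcard : Nat.card (fix M (z * x * z⁻¹)) = Nat.card (fix M x) := by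
        refine Nat.card_congr
          { toFun := fun m => ⟨z⁻¹ • (m : M), ?_⟩
            invFun := fun m => ⟨z • (m : M), ?_⟩
            left_inv := fun m => Subtype.ext (smul_inv_smul z (m : M))
            right_inv := fun m => Subtype.ext (inv_smul_smul z (m : M)) }
        · have h5 := mem_fix.1 m.2
          rw [mem_fix, ← mul_smul, eq_comm, inv_smul_eq_iff, ← mul_smul]
          rw [show z * (x * z⁻¹) = z * x * z⁻¹ by group]
          exact h5.symm
        · have h5 := mem_fix.1 m.2
          rw [mem_fix, ← mul_smul, show z * x * z⁻¹ * z = z * x by group, mul_smul, h5]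
      have h5 := Nat.card_le_card_of_injective _ (Subgroup.mul_injective_of_disjoint hdis)
      rw [Nat.card_prod, hcard, hM] at h5
      nlinarith
    refine ⟨h4, ?_⟩
    have h5 : Nat.card (Subgroup.centralizer ({x} : Set Q)) ≤ 4 := by
      have h6 : Nat.card (MulAut E) = 4 := by
        rw [IsCyclic.card_mulAut, hE]
        decide
      rw [← h6]
      refine Nat.card_le_card_of_injective
        (fun g : Subgroup.centralizer ({x} : Set Q) => (MulAut.conjNormal (g : Q) : MulAut E)) ?_
      intro g g' hgg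
      by_contra hne
      have h7 : (MulAut.conjNormal ((g'⁻¹ * g : Subgroup.centralizer ({x} : Set Q)) : Q) : MulAut E) = 1 := by
        have h8 : (MulAut.conjNormal (g : Q) : MulAut E) = MulAut.conjNormal (g' : Q) := hgg
        rw [Subgroup.coe_mul, map_mul, h8, Subgroup.coe_inv, map_inv, inv_mul_cancel]
      have h8 : ((g'⁻¹ * g : Subgroup.centralizer ({x} : Set Q)) : Q) ≠ 1 := by
        intro h
        apply hne
        exact (inv_mul_eq_one.1 (Subtype.ext h)).symm
      set k : Q := ((g'⁻¹ * g : Subgroup.centralizer ({x} : Set Q)) : Q) with hk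
      have h9 : k * x = x * k := Subgroup.mem_centralizer_singleton_iff.1 (g'⁻¹ * g).2
      haveI : Nontrivial E := (Finite.one_lt_card_iff_nontrivial).1 (by rw [hE]; norm_num)
      obtain ⟨⟨z, hz⟩, hz1⟩ := exists_ne (1 : E)
      have hz1' : z ≠ 1 := fun h => hz1 (Subtype.ext h)
      have h10 : k * z = z * k := by
        have h11 := DFunLike.congr_fun h7 (⟨z, hz⟩ : E)
        have h12 := congrArg Subtype.val h11
        rw [MulAut.conjNormal_apply] at h12
        have h13 : k * z * k⁻¹ = z := h12
        rw [mul_inv_eq_iff_eq_mul] at h13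
        exact h13
      have h11 : k ∈ E := hcE z hz hz1' k h10
      exact hxE (hcE k h11 h8 x h9.symm)
    calc Nat.card (fix M x) * Nat.card (Subgroup.centralizer ({x} : Set Q)) ≤ 4 * 4 := Nat.mul_le_mul h4 h5
      _ = 16 := by norm_num

end main

end key

end Cfsg.Agent.H902.Kgv
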